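import Cfsg.Agent.H8.C7.C0
import Cfsg.Agent.H5.C5U.Two

/-! The normaliser of `7^{1+2}` in `SU₇(q)`: set-up. -/

set_option autoImplicit false
set_option linter.unusedSimpArgs false
set_option linter.unusedSectionVars false
set_option linter.unusedVariables false

namespace Cfsg.Agent.H2.S7

open Matrix Cfsg.Agent.H5.T3 Cfsg.Agent.H5.C5 Cfsg.Agent.H7

variable {F : Type*} [Field F] {M : Subgroup (GL (Fin 7) F)}

/-- the basic hypotheses (odd characteristic) -/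
structure H0 (p : ℕ) (ω : F) (M : Subgroup (GL (Fin 7) F)) : Prop where
  prime : p.Prime
  char : CharP F p
  finF : Finite F
  two : (2 : F) ≠ 0
  seven : (7 : F) ≠ 0
  om : Om7 ω
  hρ : InM M (ρ ω)
  hτ : InM M τ
  hu : InM M (uu ω)
  hσ : InM M σ
  hδ : InM M δ
  hφ : ∃ c : F, 7 * c ^ 2 = -1 ∧ InM M (c • Φ ω)
  det : ∀ g ∈ M, g.1.det = 1

/-- the unitary hypotheses -/
structure Hu7 [StarRing F] (p : ℕ) (ω : F) (M : Subgroup (GL (Fin 7) F)) : Prop extends H0 p ω M where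
  uni : ∀ g ∈ M, g.1ᴴ * g.1 = 1
  st : star ω = ω ^ 6
  gen : ∀ k : Subfield F, ω + ω ^ 6 ∈ k → ∀ t : F, star t = t → t ∈ k

/-- no full root subgroup -/
def NoRoot7 [StarRing F] (M : Subgroup (GL (Fin 7) F)) : Prop := ∀ e : Fin 7 → F, e ≠ 0 →
  star e ⬝ᵥ e = 0 → ¬ ∀ c : F, c + star c = 0 → InM M (1 + c • vecMulVec e (star e))

/-- the conjugates of `ρ` and `τ` commute with `ρ` and `τ` up to scalars -/
def Concl7 (ω : F) (M : Subgroup (GL (Fin 7) F)) : Prop :=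
  ∀ g ∈ M, ∀ X Y : M7 F, X = ρ ω ∨ X = τ → Y = ρ ω ∨ Y = τ →
    ∃ a : F, g.1 * X * (g⁻¹).1 * Y = a • (Y * (g.1 * X * (g⁻¹).1))

/-- the core statement -/
def Main7U (F : Type*) [Field F] [StarRing F] : Prop :=
  ∀ {p : ℕ} {ω : F} {M : Subgroup (GL (Fin 7) F)}, Hu7 p ω M → NoRoot7 M → Concl7 ω M

/-- the elements commuting with `u` and `σ` are monomial -/
def Mono (M : Subgroup (GL (Fin 7) F)) : Prop := ∀ {x a b c d e f : F},
  InM M (bk x !![a, b; b, a] !![c, d; d, c] !![e, f; f, e]) →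
    (a = 0 ∨ b = 0) ∧ (c = 0 ∨ d = 0) ∧ (e = 0 ∨ f = 0)

namespace H0

variable {p : ℕ} {ω : F} (h : H0 p ω M)
include h

theorem fin : Finite (GL (Fin 7) F) := by haveI := h.finF; infer_instance

theorem one7 : ω ^ 7 = 1 := om7 h.om

theorem ne {k l : ℕ} (hk : (k + 6 * l) % 7 ≠ 0) : ω ^ k - ω ^ l ≠ 0 :=
  sub_ne_zero.2 (om_ne h.om h.seven hk)

theorem cτ {X : M7 F} (hX : InM M X) : InM M (τ * X * τ') := (h.hτ.mul hX).mul (h.hτ.inv ττ')

theorem cyc (g : HH M) : ∃ g' : HH M, r0 M g' = r0 M g ∧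
    r2 M g' = r1 M g ∧ r3 M g' = r2 M g ∧ r1 M g' = r3 M g := by
  obtain ⟨g', a, b, c, d⟩ := ex_HH (a := (r0 M g).1 0 0) (X := (r3 M g).1) (Y := (r1 M g).1)
    (Z := (r2 M g).1) (((h.hδ.mul (InM.of g.2.1)).mul (h.hδ.inv δδ')).congr (by rw [HH_bk]; m7))
  exact ⟨g', Units.ext (by rw [a]; m7), Units.ext c, Units.ext d, Units.ext b⟩

theorem exu : ∃ g : CC M, g.1.1 = uu ω ∧ (ru h.two M g).1 = diagonal (fun i => ω ^ ![1, 4, 2] i) ∧
    (rv h.two M g).1 = diagonal fun i => ω ^ ![0, 1, 4, 2] i := by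
  have := h.two
  obtain ⟨g, hg⟩ := ex_CC this h.hu (by m7)
  refine ⟨g, hg, ?_, ?_⟩ <;> simp only [ru, rv, rs'_val, hg] <;> m7x <;> field_simp <;> ring

theorem exφ : ∃ g : CC M, ∃ c : F, 7 * c ^ 2 = -1 ∧ g.1.1 = c • Φ ω ∧ (ru h.two M g).1 = c • Φu ω ∧
    (rv h.two M g).1 = c • Φv ω := by
  have := h.two
  obtain ⟨c, hc, hφ⟩ := h.hφ
  obtain ⟨g, hg⟩ := ex_CC this hφ (by m7)
  refine ⟨g, c, hc, hg, ?_, ?_⟩ <;> simp only [ru, rv, rs'_val, hg, Φu, Φv] <;> m7x <;> field_simp <;>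
    ring

theorem Φu_ne {c : F} (hc : 7 * c ^ 2 = -1) (i j : Fin 3) : (c • Φu ω) i j ≠ 0 := by
  have c0 : c ≠ 0 := by rintro rfl; simp at hc
  have := h.ne (k := 1) (l := 6) (by norm_num)
  have := h.ne (k := 2) (l := 5) (by norm_num)
  have := h.ne (k := 4) (l := 3) (by norm_num)
  fin_cases i <;> fin_cases j <;> simp_all [Φu]

theorem Φv_ne {c : F} (hc : 7 * c ^ 2 = -1) (i j : Fin 4) : (c • Φv ω) i j ≠ 0 := by
  have c0 : c ≠ 0 := by rintro rfl; simp at hc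
  have k : ∀ a b : ℕ, (2 * a + 6 * (2 * b)) % 7 ≠ 0 → ω ^ a + ω ^ b ≠ 0 := fun a b e e' =>
    h.ne e (by rw [mul_comm 2, mul_comm 2, pow_mul, pow_mul]; linear_combination (ω ^ a - ω ^ b) * e')
  have := k 1 6 (by norm_num)
  have := k 2 5 (by norm_num)
  have := k 4 3 (by norm_num)
  have := h.two
  fin_cases i <;> fin_cases j <;> simp_all [Φv]

end H0

end Cfsg.Agent.H2.S7
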