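import Cfsg.Agent.H8.C7U.Set

/-! The kernel of the centraliser of `σ` on the `+1`-eigenspace, for all odd characteristics. -/

set_option autoImplicit false
set_option linter.unusedSimpArgs false
set_option linter.unusedSectionVars false
set_option linter.unusedVariables false

namespace Cfsg.Agent.H2.S7

open Matrix Subgroup Cfsg.Agent.H5.T3 Cfsg.Agent.H5.C5 Cfsg.Agent.H7
open scoped commutatorElement Pointwise

variable {F : Type*} [Field F] {ω : F} {M : Subgroup (GL (Fin 7) F)} {p : ℕ}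

theorem H0.ab4 (h : H0 p ω M) {U : GL (Fin 4) F} (hU : U.1 = diagonal fun i => ω ^ ![0, 1, 4, 2] i)
    {x : GL (Fin 4) F} (h2 : ∀ j, Commute x ((MulAut.conj U)^[j] x)) {m : ℕ} (hm : ¬ p ∣ m)
    (hS : x ^ m = 1) : U * x * U⁻¹ = x := by
  haveI := h.finF
  haveI := h.char
  have k1 : ∀ (d : Fin 6) (i j k l : Fin 4), ¬ ((![0, 1, 4, 2] i + 6 * ![0, 1, 4, 2] k + (d.1 + 1)) % 7 = 0 ∧
    (![0, 1, 4, 2] k + 6 * ![0, 1, 4, 2] l + (d.1 + 1)) % 7 = 0 ∧
    (![0, 1, 4, 2] l + 6 * ![0, 1, 4, 2] j + (d.1 + 1)) % 7 = 0) := by decide +kernel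
  have c : ∀ i k, Commute ((MulAut.conj U)^[i] x) ((MulAut.conj U)^[i + k] x) := fun i k => by
    rw [Function.iterate_add_apply, conj_iter, conj_iter _ _ i]; exact (h2 k).map _
  have k : ∀ d : Fin 6, (of fun i j => if (![0, 1, 4, 2] i + 6 * ![0, 1, 4, 2] j + (d.1 + 1)) % 7 = 0
      then x.1 i j else 0) = 0 := fun d => sp_red h.prime (S := Set.range fun j => (MulAut.conj U)^[j] x)
    (by
      rintro _ ⟨i, rfl⟩ _ ⟨j, rfl⟩
      rcases le_total i j with e | e <;> obtain ⟨k, rfl⟩ := Nat.exists_eq_add_of_le e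
      exacts [c i k, (c j k).symm]) hm (by rintro _ ⟨i, rfl⟩; simp only [conj_iter, ← map_pow _ x, hS, map_one])
    (comp_mat h.om h.seven _ hU (sp_conj (S := Set.range _) (by
      rintro _ ⟨i, rfl⟩; exact ⟨i + 1, Function.iterate_succ_apply' _ _ _⟩))
      (Submodule.subset_span ⟨x, ⟨0, rfl⟩, rfl⟩) _) ⟨3, by
      ext i j
      simp only [pow_succ, pow_zero, one_mul, mul_apply, Finset.sum_mul, of_apply]
      refine Finset.sum_eq_zero fun l _ => Finset.sum_eq_zero fun k _ => ?_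
      have := k1 d i j k l
      split_ifs <;> simp_all only [and_self, not_true, mul_zero, zero_mul]⟩
  have k2 : ∀ i j : Fin 4, i ≠ j → ∃ d : Fin 6,
    (![0, 1, 4, 2] i + 6 * ![0, 1, 4, 2] j + (d.1 + 1)) % 7 = 0 := by decide
  have k3 : x.1.IsDiag := fun i j e => by
    obtain ⟨d, hd⟩ := k2 i j e
    simpa [hd] using congrFun (congrFun (k d) i) j
  rw [mul_inv_eq_iff_eq_mul]
  apply Units.ext
  rw [Units.val_mul, Units.val_mul, hU, ← k3.diagonal_diag, diagonal_mul_diagonal', diagonal_mul_diagonal']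
  simp only [mul_comm]

theorem H0.diag4 (h : H0 p ω M) {U : GL (Fin 4) F} (hU : U.1 = diagonal fun i => ω ^ ![0, 1, 4, 2] i)
    {x : GL (Fin 4) F} (e : U * x * U⁻¹ = x) : x.1.IsDiag := fun i j hij => by
  have : (U.1 * x.1) i j = (x.1 * U.1) i j := by
    rw [← Units.val_mul, mul_inv_eq_iff_eq_mul.1 e, Units.val_mul]
  rw [hU, diagonal_mul, mul_diagonal, mul_comm (x.1 i j)] at this
  exact by_contra fun e => om_ne h.om h.seven (by clear this e; revert i j; decide) (mul_right_cancel₀ e this)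

theorem H0.L4 (h : H0 p ω M) {U f : GL (Fin 4) F}
    (hU : U.1 = diagonal fun i => ω ^ ![0, 1, 4, 2] i) (hf : ∀ i j, f.1 i j ≠ 0)
    {Λ : Subgroup (GL (Fin 4) F)} (nU : U ∈ normalizer (Λ : Set (GL (Fin 4) F)))
    (nf : f ∈ normalizer (Λ : Set (GL (Fin 4) F))) (E : ∀ x ∈ Λ, U * x * U⁻¹ = x → x * x = 1) :
    ∀ x ∈ Λ, H7.IsScal x.1 := by
  haveI := h.finF
  haveI := h.char
  haveI := Fact.mk h.prime
  have U7 : U ^ 7 = 1 := Units.ext (by
    rw [Units.val_pow_eq_pow_val, hU, diagonal_pow, Units.val_one, ← diagonal_one]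
    congr 1; ext i
    simp [← pow_mul, mul_comm _ 7, pow_mul ω 7, h.one7])
  let φ := Λ.normalizerMonoidHom ⟨U, nU⟩
  have φ7 : φ ^ 7 = 1 := by rw [← map_pow, show (⟨U, nU⟩ : normalizer _) ^ 7 = 1 from Subtype.ext U7, map_one]
  have odd : ∀ r : ℕ, r.Prime → r ≠ 2 → r ≠ p → [Fact r.Prime] → ¬ 7 ∣ Nat.card (Sylow r Λ) →
      ¬ r ∣ Nat.card Λ := fun r hr r2 rp _ h7 d => by
    obtain ⟨P, hP⟩ := inv_sylow φ φ7 r h7
    haveI : Nontrivial P := Finite.one_lt_card_iff_nontrivial.1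
      (hr.one_lt.trans_le (Nat.le_of_dvd Nat.card_pos (P.dvd_card_of_dvd_card d)))
    haveI := P.isPGroup'.center_nontrivial
    obtain ⟨n, n0, hn⟩ := (P.isPGroup'.to_subgroup (center P)).nontrivial_iff_card.1 inferInstance
    obtain ⟨z, hz⟩ := exists_prime_orderOf_dvd_card' (G := center P) r (hn ▸ dvd_pow_self r n0.ne')
    rw [← orderOf_coe, ← orderOf_coe, ← orderOf_coe] at hz
    have m : ∀ j, ∃ y ∈ P, y.1 = (MulAut.conj U)^[j] z.1.1.1 := fun j => by
      induction j with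
      | zero => exact ⟨_, z.1.2, rfl⟩
      | succ j ih =>
        obtain ⟨y, a, b⟩ := ih
        exact ⟨_, hP y a, by rw [Function.iterate_succ_apply', ← b]; rfl⟩
    have := h.ab4 hU (x := z.1.1.1) (m := r) (fun j => by
        obtain ⟨y, a, b⟩ := m j
        exact b ▸ (congrArg (fun x : P => x.1.1) (mem_center_iff.1 z.2 ⟨y, a⟩)).symm)
      (fun e => rp ((Nat.prime_dvd_prime_iff_eq h.prime hr).1 e).symm) (orderOf_dvd_iff_pow_eq_one.1 hz.dvd)
    exact r2 ((Nat.prime_dvd_prime_iff_eq hr Nat.prime_two).1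
      (hz ▸ orderOf_dvd_of_pow_eq_one (by rw [sq]; exact E _ z.1.1.2 this)))
  have ne : ∀ n : ℕ, (n : F) ≠ 0 → n ≠ p := fun n e k => e (k ▸ CharP.cast_eq_zero F p)
  have hp : p ≠ 2 := (ne 2 (by exact_mod_cast h.two)).symm
  have s7 : ¬ 7 ∣ Nat.card Λ := by
    haveI := Fact.mk (by norm_num : Nat.Prime 7)
    exact odd 7 Fact.out (by norm_num) (ne 7 (by exact_mod_cast h.seven)) (not_dvd_card_sylow 7 Λ)
  have sy : ∀ (r : ℕ) [Fact r.Prime], ¬ 7 ∣ Nat.card (Sylow r Λ) := fun r _ d =>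
    s7 (d.trans ((Sylow.card_dvd_index default).trans (index_dvd_card _)))
  have pr : ∀ r : ℕ, r.Prime → r ∣ Nat.card Λ → r ≠ p → r = 2 := fun r hr d rp =>
    haveI := Fact.mk hr
    by_contra fun r2 => odd r hr r2 rp (sy r) d
  have two := fix_two (MulAut.conj U).toMonoidHom (fun x => by
      rw [MulEquiv.coe_toMonoidHom, conj_iter, U7, map_one, MulAut.one_apply]) E
    fun y _ ⟨k, hk⟩ c => h.ab4 hU c (fun e => hp ((Nat.prime_dvd_prime_iff_eq h.prime Nat.prime_two).1
      (h.prime.dvd_of_dvd_pow e))) hk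
  have np : ¬ p ∣ Nat.card Λ := fun d => by
    obtain ⟨Q, hQ⟩ := inv_sylow φ φ7 2 (sy 2)
    have q1 : ∀ x : Q, U * x.1.1 * U⁻¹ = x.1.1 := fun x => two (Q.1.map Λ.subtype) (map_subtype_le _)
      (Q.isPGroup'.map _) (by rintro _ ⟨x, hx, rfl⟩; exact ⟨_, hQ x hx, rfl⟩) _ ⟨_, x.2, rfl⟩
    have dc : ∀ x y : Λ, φ x = x → φ y = y → x * y = y * x := fun x y a b => Subtype.ext (Units.ext (by
      rw [coe_mul, coe_mul, Units.val_mul, Units.val_mul,
        ← (h.diag4 hU (congrArg Subtype.val a)).diagonal_diag,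
        ← (h.diag4 hU (congrArg Subtype.val b)).diagonal_diag]
      exact (commute_diagonal _ _).eq))
    have q2 : ∀ x ∈ Q, φ x = x := fun x hx => Subtype.ext (q1 ⟨x, hx⟩)
    have q3 : normalizer (Q : Set Λ) ≤ centralizer (Q : Set Λ) := fun n hn => by
      classical
      have k : ∀ ψ : MulAut Λ, (∀ x ∈ Q, ψ x = x) → ∀ c ∈ centralizer (Q : Set Λ),
          ψ c ∈ centralizer (Q : Set Λ) := fun ψ a c hc x hx => by
        rw [← a x hx, ← map_mul, hc x hx, map_mul]
      have k1 : n⁻¹ * φ n ∈ centralizer (Q : Set Λ) := fun x hx => by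
        have := q2 _ ((mem_normalizer_iff.1 hn x).1 hx)
        rw [map_mul, map_mul, map_inv, q2 x hx] at this
        calc x * (n⁻¹ * φ n) = n⁻¹ * (n * x * n⁻¹) * φ n := by group
          _ = _ := by rw [← this]; group
      have k2 : ∀ x, n⁻¹ * MulAut.toPerm Λ φ x ∈ centralizer (Q : Set Λ) ↔
          n⁻¹ * x ∈ centralizer (Q : Set Λ) := fun x => by
        rw [show n⁻¹ * MulAut.toPerm Λ φ x = n⁻¹ * φ n * φ (n⁻¹ * x) by simp; rfl, mul_mem_cancel_left k1]
        exact ⟨fun a => by simpa using k φ⁻¹ (fun x hx => by rw [← q2 x hx, ← MulAut.mul_apply,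
          inv_mul_cancel, MulAut.one_apply, q2 x hx]) _ a, k φ q2 _⟩
      haveI := Fact.mk (by norm_num : Nat.Prime 7)
      letI := Fintype.ofFinite Λ
      obtain ⟨⟨x, hx⟩, e⟩ := Equiv.Perm.exists_fixed_point_of_prime (p := 7) (n := 1)
        (σ := (MulAut.toPerm Λ φ).subtypePerm (p := fun x => n⁻¹ * x ∈ centralizer (Q : Set Λ)) k2) (by
          rw [← Nat.card_eq_fintype_card, Nat.card_congr ((Equiv.mulLeft n⁻¹).subtypeEquiv
            (p := fun x => n⁻¹ * x ∈ centralizer (Q : Set Λ))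
            (q := (· ∈ centralizer (Q : Set Λ))) fun _ => Iff.rfl)]
          exact fun d => s7 (d.trans (card_subgroup_dvd_card _))) (by
          rw [Equiv.Perm.subtypePerm_pow]
          ext x; simp only [← map_pow, pow_one, φ7, map_one]; rfl)
      have : x ∈ centralizer (Q : Set Λ) := fun y hy => dc _ _ (q2 y hy) (congrArg Subtype.val e)
      simpa using mul_mem this (inv_mem hx)
    have q4 := MonoidHom.ker_transferSylow_isComplement' Q q3
    have q5 := MonoidHom.not_dvd_card_ker_transferSylow Q q3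
    have q6 := (MonoidHom.transferSylow Q q3).normal_ker
    generalize (MonoidHom.transferSylow Q q3).ker = K at q4 q5 q6
    obtain ⟨a, ha⟩ := IsPGroup.iff_card.1 Q.isPGroup'
    let P : Sylow p Λ := (IsPGroup.of_card (Nat.eq_prime_pow_of_unique_prime_dvd (p := p) Nat.card_pos.ne'
      fun {r} hr d => by_contra fun e => q5 (pr r hr (d.trans (card_subgroup_dvd_card K)) e ▸ d))).toSylow (by
        rw [q4.symm.index_eq_card, ha]
        exact fun e => hp ((Nat.prime_dvd_prime_iff_eq h.prime Nat.prime_two).1 (h.prime.dvd_of_dvd_pow e)))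
    haveI := Sylow.unique_of_normal P q6
    let W : Submodule F (Fin 4 → F) :=
      { carrier := {v | ∀ x : P, x.1.1.1 *ᵥ v = v}
        add_mem' := fun a b x => by rw [mulVec_add, a x, b x]
        zero_mem' := fun x => mulVec_zero _
        smul_mem' := fun c v a x => by rw [mulVec_smul, a x] }
    have hW : ∀ g ∈ normalizer (Λ : Set (GL (Fin 4) F)), ∀ v ∈ W, g.1 *ᵥ v ∈ W := fun g hg v hv x => by
      have := hv ⟨Λ.normalizerMonoidHom ⟨g, hg⟩⁻¹ x, (congrArg Sylow.toSubgroup (Subsingleton.elim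
        (Λ.normalizerMonoidHom ⟨g, hg⟩⁻¹ • P) P)).le (smul_mem_pointwise_smul x.1 _ P.1 x.2)⟩
      conv_rhs => rw [← this]
      rw [mulVec_mulVec, mulVec_mulVec, ← Units.val_mul, ← Units.val_mul]
      congr 2
      show _ = g * (g⁻¹ * x.1.1 * g⁻¹⁻¹)
      group
    have sg : ∀ v ∈ W, ∀ i, v i ≠ 0 → Pi.single i 1 ∈ W := fun v hv i e => by
      convert W.smul_mem (v i)⁻¹ (comp_vec h.om h.seven ![0, 1, 4, 2] (fun v hv => by
        convert hW U nU v hv using 1; ext i; rw [hU, mulVec_diagonal]) hv (6 * ![0, 1, 4, 2] i)) using 1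
      ext j
      fin_cases i <;> fin_cases j <;> simp at e ⊢ <;> simp [e]
    letI : MulAction P (Fin 4 → F) :=
      { smul := fun x v => x.1.1.1 *ᵥ v
        one_smul := fun v => one_mulVec v
        mul_smul := fun x y v => (mulVec_mulVec _ _ _).symm }
    obtain ⟨v, hv, v0⟩ := P.isPGroup'.exists_fixed_point_of_prime_dvd_card_of_fixed_point (Fin 4 → F)
      (by rw [Nat.card_pi, Fin.prod_univ_succ]
          refine Dvd.dvd.mul_right ?_ _
          letI := Fintype.ofFinite F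
          obtain ⟨n, -, hn⟩ := FiniteField.card F p
          rw [Nat.card_eq_fintype_card, hn]
          exact dvd_pow_self p n.ne_zero) (a := 0) fun x => mulVec_zero _
    obtain ⟨i, hi⟩ := Function.ne_iff.1 v0.symm
    refine (h.prime.one_lt.trans_le (Nat.le_of_dvd Nat.card_pos (P.dvd_card_of_dvd_card d))).ne'
      (card_eq_one.2 ((eq_bot_iff_forall _).2 fun x hx =>
      Subtype.ext (Units.ext ?_)))
    ext k j
    simpa [one_apply, Pi.single_apply] using congrFun (sg _ (hW f nf _ (sg v hv i hi)) j (by simp [hf]) ⟨x, hx⟩) k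
  have all := two Λ le_rfl (IsPGroup.of_card (Nat.eq_prime_pow_of_unique_prime_dvd Nat.card_pos.ne'
    fun {r} hr d => pr r hr d (by rintro rfl; exact np d))) fun x => (mem_normalizer_iff.1 nU x).1
  exact fun x hx => scal_of_diag hf (h.diag4 hU (all x hx))
    (h.diag4 hU (all _ ((mem_normalizer_iff.1 nf x).1 hx)))

namespace H0

variable (h : H0 p ω M)
include h

variable (hn : Mono M)
include hn

theorem TD (g : CC M) {a : F} (e1 : (ru h.two M g).1 = a • 1) (e2 : (rv h.two M g).1.IsDiag)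
    (i : Fin 3) : (rv h.two M g).1 i.succ i.succ ^ 2 = a ^ 2 := by
  have h2 := h.two
  have := CC_dec h2 g
  rw [← e2.diagonal_diag, e1, diag_bk] at this
  generalize hd : (rv h2 M g).1.diag = d at this
  have e3 : ∀ i, (rv h2 M g).1 i i = d i := congrFun hd
  obtain ⟨k1, k2, k3⟩ := hn ((InM.of g.2.1).congr this)
  simp only [div_eq_zero_iff, h2, or_false] at k1 k2 k3
  rw [e3]
  fin_cases i <;> simp <;> grind

theorem kerL (g : CC M) (e : ru h.two M g = 1) :
    (rv h.two M g).1 = 1 ∨ (rv h.two M g).1 = -1 := by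
  have h2 := h.two
  haveI := h.finF
  obtain ⟨u, -, -, u2⟩ := h.exu
  obtain ⟨f, c, hc, -, -, f2⟩ := h.exφ
  have nm : ∀ w, rv h2 M w ∈ Subgroup.normalizer (((ru h2 M).ker.map (rv h2 M)) : Set _) := fun w =>
    Subgroup.mem_normalizer_fintype (by
      rintro _ ⟨x, hx, rfl⟩
      exact ⟨w * x * w⁻¹, (MonoidHom.normal_ker _).conj_mem x hx w, by simp only [map_mul, map_inv]⟩)
  have E : ∀ x ∈ (ru h2 M).ker.map (rv h2 M), rv h2 M u * x * (rv h2 M u)⁻¹ = x → x * x = 1 := by
    rintro _ ⟨x, hx, rfl⟩ e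
    have d := h.diag4 u2 e
    have t := h.TD hn x (a := 1) (by rw [show ru h2 M x = 1 from hx]; simp) d
    have k := CC_det h2 x
    rw [h.det _ x.2.1, show ru h2 M x = 1 from hx, ← d.diagonal_diag, det_diagonal, Fin.prod_univ_succ] at k
    have k2 : (rv h2 M x).1 0 0 ^ 2 = 1 := by
      have := congrArg (· ^ 2) k
      simpa [-rs'_val, mul_pow, ← Finset.prod_pow, t] using this.symm
    apply Units.ext
    rw [Units.val_mul, ← d.diagonal_diag, diagonal_mul_diagonal, Units.val_one, ← diagonal_one]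
    congr 1; ext i
    rw [← sq]
    refine Fin.cases k2 (fun i => by simpa using t i) i
  obtain ⟨a, ha⟩ := h.L4 u2 (f2 ▸ h.Φv_ne hc) (nm u) (nm f) E _ ⟨g, e, rfl⟩
  have := congrArg Units.val (E _ ⟨g, e, rfl⟩ (mul_inv_eq_iff_eq_mul.2 (Units.ext (by simp [ha]))))
  rw [Units.val_mul, ha] at this
  rcases mul_self_eq_one_iff.1 (show a * a = 1 by simpa using congrFun (congrFun this 0) 0) with rfl | rfl
  · exact Or.inl (by simpa using ha)
  · exact Or.inr (by simpa using ha)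

theorem kerK (g : CC M) {a : F} (e : (ru h.two M g).1 = a • 1) :
    a ^ 7 = 1 ∧ (g.1.1 = a • 1 ∨ g.1.1 = a • σ) := by
  have h2 := h.two
  obtain ⟨u, -, -, u2⟩ := h.exu
  obtain ⟨f, c, hc, -, -, f2⟩ := h.exφ
  have dg : ∀ g : CC M, (ru h2 M g).1 = a • 1 → (rv h2 M g).1.IsDiag := fun g e => by
    refine h.diag4 u2 ?_
    have e1 : ru h2 M (g⁻¹ * u * g * u⁻¹) = 1 := by
      rw [map_mul, map_mul, map_mul, map_inv, map_inv, mul_inv_eq_one, mul_assoc, inv_mul_eq_iff_eq_mul]
      exact Units.ext (by simp [e])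
    rcases h.kerL hn _ e1 with k | k <;>
      rw [map_mul, map_mul, map_mul, map_inv, map_inv] at k
    · rw [← inv_mul_eq_one.1 (show (rv h2 M g)⁻¹ * (_ * _ * _) = 1 from
        Units.ext (by simpa only [mul_assoc, Units.val_one] using k))]
    · rw [Units.val_mul, Units.mul_inv_eq_iff_eq_mul] at k
      have := congrArg (· ^ 7) k
      have u7 : (rv h2 M u).1 ^ 7 = 1 := by
        rw [u2, diagonal_pow, ← diagonal_one]
        congr 1; ext i
        simp [← pow_mul, mul_comm _ 7, pow_mul ω 7, h.one7]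
      simp only [Units.val_mul, Units.conj_pow', neg_one_mul, Odd.neg_pow (by decide : Odd 7), u7,
        mul_one, Units.inv_mul] at this
      have : (1 : F) = -1 := by simpa using congrFun (congrFun this 0) 0
      exact (h2 (by linear_combination this)).elim
  obtain ⟨b, hb⟩ := scal_of_diag (f2 ▸ h.Φv_ne hc) (dg g e) (by
    simpa only [map_mul, map_inv] using dg (f * g * f⁻¹) (by simp [e]))
  have t := h.TD hn g e (dg g e) 0
  have k := CC_det h2 g
  rw [h.det _ g.2.1, e, hb] at k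
  rw [hb] at t
  simp at t k
  exact ⟨by linear_combination -k - a ^ 3 * (a ^ 2 + b ^ 2) * t,
    (sq_eq_sq_iff_eq_or_eq_neg.1 t).imp (CC_scal h2 e hb).1 (CC_scal h2 e hb).2⟩

end H0

end Cfsg.Agent.H2.S7
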