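import Cfsg.Agent.H8.C7U.B
import Cfsg.Agent.H6.C7U.NoSU

/-! The core statement for `7^{1+2}` in `SU₇(q)`. -/

set_option autoImplicit false

namespace Cfsg.Agent.H2.S7

open Matrix Cfsg.Agent.H5.T3 Cfsg.Agent.H5.C5 Cfsg.Agent.H7 Cfsg.Agent.H8

variable {F : Type*} [Field F]

theorem noSU3 : NoSU3 F := fun h hn P g k q c a b => by
  haveI := h.finF
  obtain ⟨f, -, f1, f2, f4, c₀, c1, f3⟩ := h.exφ'
  exact H6.C7U.no_su3 h.two _ _ (h.kerL hn) c a b f1 (fun ⟨a, ha⟩ => f2 0 1 (by simp [ha])) f4 h.om c1 f3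

theorem main7u [Fintype F] [StarRing F] [H5.U.NStar F] : Main7U F := main7u_of noSU3

end Cfsg.Agent.H2.S7
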