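import Cfsg.Agent.H8.C7U.Set

/-! The stabiliser of the splitting `W₀ ⊕ W₁ ⊕ W₂ ⊕ W₃` in the unitary case. -/

set_option autoImplicit false
set_option linter.unusedSimpArgs false
set_option linter.unusedSectionVars false
set_option linter.unusedVariables false

namespace Cfsg.Agent.H2.S7

open Matrix OnePoint Cfsg.Agent.H5.T3 Cfsg.Agent.H5.C5 Cfsg.Agent.H8 Cfsg.Agent.H7 Cfsg.Agent.H5.C5U
open Cfsg.Agent.H5.U

variable {F : Type*} [Field F] [StarRing F] [Fintype F] [NStar F] {M : Subgroup (GL (Fin 7) F)}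

section
open Matrix.ProjGenLinGroup (mk)
local macro "mc" : tactic => `(tactic| m7)

theorem dickU {X : Subgroup (GL (Fin 2) F)} (hS : Sim X) {α β : F} (hα : α ≠ 0) (hβ : β ≠ 0)
    (hn : ∀ n, 0 < n → n ≤ 5 → α ^ n ≠ β ^ n) (ha : InM X !![α, 0; 0, β])
    (hk : ∀ k : Subfield F, (α + β) ^ 2 / (α * β) ∈ k → ∀ t : F, star t = t → t ∈ k)
    (hs : ∃ s ∈ X, s 0 0 = 0 ∧ s 1 1 = 0)
    (hf : ∃ f ∈ X, (f 0 0 ≠ 0 ∨ f 1 1 ≠ 0) ∧ (f 0 1 ≠ 0 ∨ f 1 0 ≠ 0)) : SUin X := by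
  obtain ⟨p, hp⟩ := CharP.exists F
  haveI : Fact p.Prime := ⟨CharP.char_is_prime F p⟩
  obtain ⟨a, haX, ha⟩ := ha
  obtain ⟨s, hsX, s0, s1⟩ := hs
  obtain ⟨f, hfX, f0, f1⟩ := hf
  have hne : α ≠ β := by simpa using hn 1 (by norm_num) (by norm_num)
  have hne2 : α * α ≠ β * β := by simpa [sq] using hn 2 (by norm_num) (by norm_num)
  have ha2 : (a * a).1 = !![α * α, 0; 0, β * β] := by
    rw [Units.val_mul, ha]; ext i j; fin_cases i <;> fin_cases j <;> simp [mul_apply, Fin.sum_univ_two]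
  have hsd := s.det_ne_zero
  rw [det_fin_two, s0] at hsd
  have s01 : s 0 1 ≠ 0 := fun e => hsd (by rw [e]; ring)
  have s10 : s 1 0 ≠ 0 := fun e => hsd (by rw [e]; ring)
  have hfd := f.det_ne_zero
  rw [det_fin_two] at hfd
  have pair : ∀ {K : Type _} [Field K] [Algebra F K] (x y : OnePoint K),
      X.map mk ≤ pairStab F x y → (x = ∞ ∨ x = ((0 : K) : OnePoint K)) ∧
        (y = ∞ ∨ y = ((0 : K) : OnePoint K)) := by
    intro K _ _ x y hH
    have h1 : mk (a * a) • x = x ∧ mk (a * a) • y = y := by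
      rw [map_mul, mul_smul, mul_smul]
      rcases hH ⟨a, haX, rfl⟩ with ⟨e1, e2⟩ | ⟨e1, e2⟩
      · rw [e1, e1, e2, e2]; exact ⟨rfl, rfl⟩
      · rw [e1, e2, e1]; exact ⟨rfl, rfl⟩
    exact ⟨fix_diag ha2 hne2 h1.1, fix_diag ha2 hne2 h1.2⟩
  rcases H3.dickson2 p (X.map mk) with ⟨x, hx⟩ | ⟨x, y, hxy, hx⟩ | ⟨t, a', b', ht, hx⟩ | hx | ⟨k, γ, -, hx⟩
  · exfalso
    have h1 : mk s • x = x := hx ⟨s, hsX, rfl⟩
    rcases fix_diag ha hne (hx ⟨a, haX, rfl⟩ : mk a • x = x) with rfl | rfl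
    · exact s10 (smul_infty_eq_infty.1 h1)
    · rw [smul_coe_eq_coe] at h1
      exact s01 (by simpa using h1)
  · exfalso
    have hp := pair x y hx
    have h1 := hx ⟨f, hfX, rfl⟩
    have key : (mk f • (∞ : OnePoint F) = ∞ ∧ mk f • ((0 : F) : OnePoint F) = ((0 : F) : OnePoint F)) ∨
        (mk f • (∞ : OnePoint F) = ((0 : F) : OnePoint F) ∧ mk f • ((0 : F) : OnePoint F) = ∞) := by
      obtain ⟨rfl | rfl, rfl | rfl⟩ := hp
      · exact absurd rfl hxy
      · exact h1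
      · exact h1.imp And.symm And.symm
      · exact absurd rfl hxy
    rcases key with ⟨e1, e2⟩ | ⟨e1, e2⟩
    · rw [smul_infty_eq_infty] at e1
      rw [smul_coe_eq_coe] at e2
      exact f1.elim (fun e => e (by simpa using e2)) (fun e => e e1)
    · rw [smul_infty_eq_coe] at e1
      rw [smul_coe_eq_infty] at e2
      exact f0.elim (fun e => e (by simpa using e1)) (fun e => e (by simpa using e2))
  · exfalso
    rcases (pair _ _ hx).1 with e | e
    · exact coe_ne_infty _ e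
    · exact ht.not_mem 0 (by rw [map_zero]; exact (coe_eq_coe.1 e).symm)
  · exfalso
    have an : ∀ n, (a ^ n).1 = !![α ^ n, 0; 0, β ^ n] := fun n => by
      induction n with
      | zero => ext i j; fin_cases i <;> fin_cases j <;> simp
      | succ n ih => rw [pow_succ, Units.val_mul, ih, ha]; simp [pow_succ]
    have k3 := pow_orderOf_eq_one (mk a)
    rw [← map_pow, mk_eq_one_iff] at k3
    exact hn _ (orderOf_pos (mk a)) (hx.1 _ ⟨a, haX, rfl⟩) (by simpa [an] using k3.2.2)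
  · induction γ using ProjGenLinGroup.induction_on with | mk g =>
    have hL : ∀ (y : GL (Fin 2) F) (N : M2 F), y.1 = 1 + N → N * N = 0 → mk y ∈ PS k →
        InM X (g.1 * y.1 * (g⁻¹).1) := fun y N h1 h2 h3 => by
      have : mk (g * y * g⁻¹) ∈ X.map mk := by
        have e : (mk g)⁻¹ * mk (g * y * g⁻¹) * mk g = mk y := by simp [mul_assoc]
        rcases hx with hx | hx <;> rw [hx, mem_cj, e]
        · exact h3
        · exact PS_le_PG _ h3
      obtain ⟨x, hx, e⟩ := this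
      obtain ⟨c, hc, e⟩ := exists_smul_of_mk_eq e.symm
      have e1 : x.1 = c • (g.1 * y.1 * (g⁻¹).1) := by ext i j; simp [e]
      have e2 : g.1 * y.1 * (g⁻¹).1 = 1 + g.1 * N * (g⁻¹).1 := by simp [h1, mul_add, add_mul]
      rw [e2] at e1 ⊢
      refine inM_unip ?_ ((InM.of hx).congr e1)
      calc g.1 * N * (g⁻¹).1 * (g.1 * N * (g⁻¹).1) = g.1 * (N * ((g⁻¹).1 * g.1) * N) * (g⁻¹).1 := by
            simp only [Matrix.mul_assoc]
        _ = 0 := by simp [h2]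
    have hu : ∀ s ∈ k, InM X (g.1 * !![1, s; 0, 1] * (g⁻¹).1) := fun s hs =>
      hL (mat 1 s 0 1 (by simp)) !![0, s; 0, 0] (by show !![1, s; 0, 1] = _; mc) (by mc)
        (mem_PS.2 ⟨_, rfl, fun i j => by fin_cases i <;> fin_cases j <;> simp [hs], 1, k.one_mem, by simp⟩)
    have hl : ∀ s ∈ k, InM X (g.1 * !![1, 0; s, 1] * (g⁻¹).1) := fun s hs =>
      hL (mat 1 0 s 1 (by simp)) !![0, 0; s, 0] (by show !![1, 0; s, 1] = _; mc) (by mc)
        (mem_PS.2 ⟨_, rfl, fun i j => by fin_cases i <;> fin_cases j <;> simp [hs], 1, k.one_mem, by simp⟩)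
    have hk' := hk k (by
      have : (mk g)⁻¹ * mk a * mk g ∈ PG k := by
        have : mk a ∈ X.map mk := ⟨a, haX, rfl⟩
        rcases hx with hx | hx <;> rw [hx, mem_cj] at this
        · exact PS_le_PG _ this
        · exact this
      obtain ⟨y, hy, hyk⟩ := mem_PG.1 this
      rw [← map_inv, ← map_mul, ← map_mul] at hy
      obtain ⟨c, hc, e⟩ := exists_smul_of_mk_eq hy
      have e1 : (g⁻¹).1 * a.1 * g.1 = c • y.1 := by ext i j; simpa using e i j
      have e2 := congrArg det e1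
      have e3 := congrArg trace e1
      rw [det_units_conj', ha, det_smul, det_fin_two_of, det_fin_two] at e2
      rw [trace_units_conj', ha, trace_smul, trace_fin_two_of, trace_fin_two] at e3
      have e4 := y.det_ne_zero
      rw [det_fin_two] at e4
      have : (α + β) ^ 2 / (α * β) = (y 0 0 + y 1 1) ^ 2 / (y 0 0 * y 1 1 - y 0 1 * y 1 0) := by
        simp only [Fintype.card_fin, smul_eq_mul, mul_zero, sub_zero] at e2 e3
        rw [e2, e3]; field_simp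
      rw [this]
      exact k.div_mem (k.pow_mem (k.add_mem (hyk _ _) (hyk _ _)) 2)
        (k.sub_mem (k.mul_mem (hyk _ _) (hyk _ _)) (k.mul_mem (hyk _ _) (hyk _ _))))
    have hf : ∀ E : M2 F, InM X (g.1 * E * (g⁻¹).1) → ∃ l : F, Eᴴ * (g.1ᴴ * g.1) * E = l • (g.1ᴴ * g.1) := by
      rintro E ⟨x, hx, e⟩
      obtain ⟨l, hl⟩ := hS x hx
      have := frame_form (g := g) rfl hl
      rw [e] at this
      exact ⟨l, by simpa [Matrix.mul_assoc] using this⟩
    obtain ⟨l, h1⟩ := hf _ (hu 1 k.one_mem)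
    obtain ⟨m, h2⟩ := hf _ (hl 1 k.one_mem)
    have hd : (g.1ᴴ * g.1).det ≠ 0 := by simp [det_conjTranspose, g.det_ne_zero]
    obtain ⟨J, hJ⟩ : ∃ J, g.1ᴴ * g.1 = J := ⟨_, rfl⟩
    rw [hJ] at h1 h2 hd
    have a0 := congrFun (congrFun h1 0) 0
    have a1 := congrFun (congrFun h1 0) 1
    have a2 := congrFun (congrFun h1 1) 1
    have b0 := congrFun (congrFun h2 1) 1
    have b1 := congrFun (congrFun h2 1) 0
    simp [Matrix.mul_apply, Fin.sum_univ_succ] at a0 a1 a2 b0 b1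
    have j0 : J 0 0 = 0 := by
      by_contra h0
      have : l = 1 := mul_right_cancel₀ h0 (by linear_combination -a0)
      exact h0 (by rw [this] at a1; linear_combination a1)
    have j1 : J 1 1 = 0 := by
      by_contra h0
      have : m = 1 := mul_right_cancel₀ h0 (by linear_combination -b0)
      exact h0 (by rw [this] at b1; linear_combination b1)
    refine su_of_roots (j := J 0 1) (hJ.trans ?_) (fun s hs => hu s (hk' s hs)) fun s hs => hl s (hk' s hs)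
    ext i j; fin_cases i <;> fin_cases j <;> simp [j0, j1]
    rw [j0, j1] at a2
    linear_combination a2

end

theorem root16 {t : F} (ht : t * star t = -1) (c : F) : bk 1 !![1 + c, c * star t; c * t, 1 - c] 1 1 =
    1 + c • vecMulVec ![0, 1, 0, 0, 0, 0, t] (star ![0, 1, 0, 0, 0, 0, t]) := by
  simp only [← Matrix.ext_iff, Matrix.add_apply, Matrix.smul_apply, vecMulVec_apply, Pi.star_apply]
  simp [Fin.forall_fin_succ, bk, one_apply]
  linear_combination (-c) * ht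

namespace Hu7

variable {p : ℕ} {ω : F} (h : Hu7 p ω M)
include h

theorem scal_of_tw {X : GL (Fin 2) F}
    (hX : ∀ Y : M2 F, Yᴴ * Y = 1 → Y.det = 1 → ∃ c : F, X.1 * Y = c • (Y * X.1)) : IsScal X.1 := by
  have w := h.one7
  obtain ⟨ν, hν⟩ := exists_norm (t := (2⁻¹ : F)) (by simp)
  have hν' : 2 * (ν * star ν) = 1 := by rw [hν]; field_simp [h.two]
  obtain ⟨e, he⟩ := hX !![ω, 0; 0, ω ^ 6] (by
    simp [← Matrix.ext_iff, Fin.forall_fin_succ, mul_apply, h.st]; grind) (by simp [det_fin_two]; grind)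
  obtain ⟨f, hf⟩ := hX !![ν, -star ν; ν, star ν] (by
    simp [← Matrix.ext_iff, Fin.forall_fin_succ, mul_apply]; grind) (by simp [det_fin_two]; grind)
  have d := X.det_ne_zero
  rw [det_fin_two] at d
  simp [← Matrix.ext_iff, Fin.forall_fin_succ, mul_apply, vecMul, dotProduct] at he hf
  have n1 := h.ne (k := 1) (l := 6) (by norm_num)
  have n2 := h.ne (k := 2) (l := 12) (by norm_num)
  have w0 := om0 h.om
  obtain ⟨⟨e1, e2⟩, e3, e4⟩ := he
  obtain ⟨⟨f1, f2⟩, -⟩ := hf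
  have k : X.1 0 1 = 0 ∧ X.1 1 0 = 0 := by
    by_cases e0 : e = 1
    · subst e0
      exact ⟨mul_left_cancel₀ n1 (by linear_combination -e2), mul_left_cancel₀ n1 (by linear_combination e3)⟩
    · have x0 : X.1 0 0 = 0 := mul_left_cancel₀ (mul_ne_zero w0 (sub_ne_zero.2 e0))
        (by linear_combination -e1)
      rw [x0, zero_mul] at d
      exact (mul_ne_zero d n2 (by linear_combination ω ^ 6 * X.1 1 0 * e2 - ω * X.1 0 1 * e3)).elim
  have n0 : ν ≠ 0 := by rintro rfl; simp at hν'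
  rw [k.1, zero_mul, sub_zero] at d
  simp only [k, zero_mul, mul_zero, add_zero, zero_add, neg_zero, sub_zero] at f1 f2
  have f0 : f = 1 := mul_right_cancel₀ (mul_ne_zero (left_ne_zero_of_mul d) n0) (by linear_combination -f1)
  refine ⟨X.1 0 0, ?_⟩
  ext i j; fin_cases i <;> fin_cases j <;> simp [k]
  exact mul_right_cancel₀ (star_ne_zero.2 n0) (by rw [f0] at f2; linear_combination f2)

theorem normal {J : Subgroup (GL (Fin 2) F)} (hS : Sim J)
    (hJ : ∀ g g' y : M2 F, gᴴ * g = 1 → g.det = 1 → g * g' = 1 → InM J y → InM J (g * y * g'))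
    {y : M2 F} (hy : InM J y) (hn : ¬ H7.IsScal y) : SUin J := by
  have a3 : (ω + ω ^ 6) ^ 3 + (ω + ω ^ 6) ^ 2 - 2 * (ω + ω ^ 6) - 1 = 0 := by have := h.om; grind
  have ar : star (ω + ω ^ 6) = ω + ω ^ 6 := by
    rw [star_add, star_pow, h.st, ← pow_mul, pow_eq_pow_mod (6 * 6) h.one7, add_comm]; norm_num
  generalize ω + ω ^ 6 = a at a3 ar
  by_cases e : a ^ 4 = 1
  · refine su_of_normal (l := a ^ 2 - 2) (fun k => ?_) (fun k => ?_) (by simp [ar]) hS hJ hy hn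
    · grind
    have h1 : 3 * a + 2 = 0 := by grind
    have h2 : (13 : F) = 0 := by linear_combination 27 * a3 - (9 * a ^ 2 + 3 * a - 20) * h1
    have h3 : (200 : F) = 0 := by
      linear_combination 9 * k - 9 * (a ^ 4 - 8 * a ^ 2 + 25) * e + 40 * (3 * a - 2) * h1
    exact one_ne_zero (by linear_combination 77 * h2 - 5 * h3 : (1 : F) = 0)
  · exact su_of_normal (by rintro rfl; simp at a3) e ar hS hJ hy hn

theorem sim1 : Sim (r1 M).range := by
  rintro _ ⟨g, rfl⟩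
  have e : (B1 F : Matrix _ _ F) = (A1 F)ᴴ := by m7
  refine ⟨1, ?_⟩
  have := res_mul BA1 (X := g.1.1ᴴ) (HH1 g.2)
  rw [h.uni _ g.2.1, Matrix.mul_one, BA1] at this
  rw [one_smul, this, r1, rs'_val, conjTranspose_mul, conjTranspose_mul, e, conjTranspose_conjTranspose,
    Matrix.mul_assoc _ g.1.1ᴴ]

theorem exρ : ∃ g : HH M, (r0 M g).1 = !![1] ∧ (r1 M g).1 = !![ω, 0; 0, ω ^ 6] ∧
    (r2 M g).1 = !![ω ^ 2, 0; 0, ω ^ 5] ∧ (r3 M g).1 = !![ω ^ 4, 0; 0, ω ^ 3] :=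
  ex_HH (h.hρ.congr (by m7))

/-- a non-monomial element on `W₁` gives `SL₂` there -/
theorem slin_r1 (g : HH M) (h1 : r1 M g 0 0 ≠ 0 ∨ r1 M g 1 1 ≠ 0)
    (h2 : r1 M g 0 1 ≠ 0 ∨ r1 M g 1 0 ≠ 0) : SUin (r1 M).range := by
  obtain ⟨r, -, q1, -⟩ := h.exρ
  obtain ⟨s, -, s1, -⟩ := ex_HH (a := -1) (X := !![0, -1; -1, 0]) (Y := !![0, -1; -1, 0])
    (Z := !![0, -1; -1, 0]) (h.hσ.congr (by m7))
  have w := h.one7
  refine dickU h.sim1 (om0 h.om) (pow_ne_zero 6 (om0 h.om)) (fun n a b => ?_) ⟨_, ⟨r, rfl⟩, q1⟩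
    (fun k e4 => h.gen k ?_) ⟨_, ⟨s, rfl⟩, by simp [s1]⟩ ⟨_, ⟨g, rfl⟩, h1, h2⟩
  · rw [← pow_mul]; exact om_ne h.om h.seven (by omega)
  have t : (2 : F) ∈ k := by exact_mod_cast natCast_mem k 2
  rw [← pow_succ', w, div_one] at e4
  have := sub_mem (pow_mem (sub_mem (pow_mem (sub_mem e4 t) 2) t) 2) t
  rwa [show (ω + ω ^ 6) ^ 2 - 2 = ω ^ 2 + ω ^ 5 by linear_combination (2 + ω ^ 5) * w,
    show (ω ^ 2 + ω ^ 5) ^ 2 - 2 = ω ^ 4 + ω ^ 3 by linear_combination (2 + ω ^ 3) * w,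
    show (ω ^ 4 + ω ^ 3) ^ 2 - 2 = ω + ω ^ 6 by linear_combination (2 + ω) * w] at this

variable (h1 : SUin (r1 M).range)
include h1

theorem slin_map (S : Subgroup (HH M)) [hS : S.Normal] {y : HH M} (hy : y ∈ S)
    (hn : ¬ IsScal (r1 M y).1) : SUin (S.map (r1 M)) :=
  h.normal (h.sim1.mono (Subgroup.map_le_range _ _)) (by
    rintro G G' _ hu hG hG' ⟨_, ⟨z, z0, rfl⟩, rfl⟩
    obtain ⟨_, ⟨w, rfl⟩, e⟩ := h1 G hu hG
    exact ⟨_, ⟨w * z * w⁻¹, hS.conj_mem z z0 w, rfl⟩, by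
      rw [map_mul, map_mul, map_inv, Units.val_mul, Units.val_mul, e,
        Units.inv_eq_of_mul_eq_one_right (e ▸ hG')]⟩) (InM.of ⟨y, hy, rfl⟩) hn

omit h1 in
theorem scal_of_comm {S : Subgroup (HH M)} (hS : SUin (S.map (r1 M))) {g : HH M}
    (hc : ∀ k ∈ S, IsScal (r1 M (g * k * g⁻¹ * k⁻¹)).1) : IsScal (r1 M g).1 :=
  h.scal_of_tw fun Y hu hY => by
    obtain ⟨_, ⟨k, hk, rfl⟩, rfl⟩ := hS Y hu hY
    obtain ⟨c, e⟩ := hc k hk
    refine ⟨c, ?_⟩
    rw [← smul_one_mul, ← e, ← Units.val_mul, ← Units.val_mul, ← Units.val_mul, ← map_mul, ← map_mul,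
      ← map_mul]
    congr 2; group

variable (hn : NoRoot7 M)
include hn

/-- scalar on two planes implies scalar on the third -/
theorem TA (g : HH M) (h2 : IsScal (r2 M g).1) (h3 : IsScal (r3 M g).1) : IsScal (r1 M g).1 := by
  refine h.scal_of_comm (S := ⊤) (by rwa [← MonoidHom.range_eq_map]) fun k _ => by_contra fun e => ?_
  obtain ⟨t, ht⟩ := exists_norm (t := (-1 : F)) (by simp)
  refine hn ![0, 1, 0, 0, 0, 0, t] (fun e => by simpa using congrFun e 1) (by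
    simp [dotProduct, Fin.sum_univ_succ]; linear_combination ht) fun c hc => ?_
  have hc' : star c = -c := by linear_combination hc
  obtain ⟨_, ⟨z, ⟨z0, z2, z3⟩, rfl⟩, e⟩ := h.slin_map h1 ((r0 M).ker ⊓ ((r2 M).ker ⊓ (r3 M).ker))
    ⟨Hy.comm_r0 g k, Hy.comm_one (Or.inl h2), Hy.comm_one (Or.inl h3)⟩ e
    !![1 + c, c * star t; c * t, 1 - c] (by
      ext i j; fin_cases i <;> fin_cases j <;> simp [Matrix.mul_apply, Fin.sum_univ_succ, hc'] <;>
        grind) (by rw [det_fin_two_of]; linear_combination (-c ^ 2) * ht)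
  refine (InM.of z.2.1).congr ?_
  rw [HH_bk, show r0 M z = 1 from z0, show r2 M z = 1 from z2, show r3 M z = 1 from z3, e]
  exact root16 ht c

/-- scalar on one plane implies scalar on all -/
theorem TB (g : HH M) (h3 : IsScal (r3 M g).1) : IsScal (r1 M g).1 ∧ IsScal (r2 M g).1 := by
  obtain ⟨g', -, a1, a2, a3⟩ := h.cyc g
  obtain ⟨g'', -, b1, b2, b3⟩ := h.cyc g'
  have k : IsScal (r1 M g).1 := by
    by_contra e
    refine e (h.scal_of_comm (h.slin_map h1 ((Geo.scalars (Fin 2) F).comap (r2 M)) (y := g'')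
      ((mem_scalars_iff_isScal _).2 (by rwa [b1, a3])) fun e' => e (h.TA h1 hn g (by
        rwa [← a2, ← b3]) h3)) fun k hk => h.TA h1 hn _ ?_ ?_)
    · rw [Hy.comm_one (Or.inr ((mem_scalars_iff_isScal _).1 hk))]; exact ⟨1, by simp⟩
    · rw [Hy.comm_one (Or.inl h3)]; exact ⟨1, by simp⟩
  exact ⟨k, by rw [← a2, ← b3]; exact h.TA h1 hn _ (by rwa [b1, a3]) (by rwa [b2, a1])⟩

theorem TB1 (g : HH M) (h3 : IsScal (r1 M g).1) : IsScal (r2 M g).1 ∧ IsScal (r3 M g).1 := by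
  obtain ⟨g', -, a1, a2, a3⟩ := h.cyc g
  obtain ⟨g'', -, b1, b2, b3⟩ := h.cyc g'
  rw [← a2, ← b3, ← a3, ← b1]
  exact h.TB h1 hn _ (by rwa [b2, a1])

theorem TB2 (g : HH M) (h3 : IsScal (r2 M g).1) : IsScal (r1 M g).1 ∧ IsScal (r3 M g).1 := by
  obtain ⟨g', -, a1, a2, a3⟩ := h.cyc g
  rw [← a1, ← a3]
  exact (h.TB h1 hn _ (by rwa [a2])).symm

theorem T_odd : False := by
  have h2 := h.two
  obtain ⟨r, -, q1, -⟩ := h.exρ
  have d : ∀ {a b : F}, IsScal !![a, 0; 0, b] ↔ a = b := fun {a b} => ⟨fun ⟨c, e⟩ => by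
    simp [← Matrix.ext_iff, Fin.forall_fin_succ] at e; rw [e.1, e.2], fun e => ⟨a, by subst e; m7⟩⟩
  obtain ⟨k, -, hk⟩ : ∃ k ∈ (⊤ : Subgroup (HH M)), ¬ IsScal (r1 M (r * k * r⁻¹ * k⁻¹)).1 := by
    by_contra! e
    have := h.scal_of_comm (by rwa [← MonoidHom.range_eq_map]) e
    rw [q1, d] at this
    exact om_ne h.om h.seven (k := 1) (l := 6) (by norm_num) (by rwa [pow_one])
  obtain ⟨_, ⟨z, ⟨z0, z2⟩, rfl⟩, e⟩ := h.slin_map h1 ((r0 M).ker ⊓
    (GeneralLinearGroup.det.comp (r2 M)).ker) ⟨Hy.comm_r0 r k, MonoidHom.mem_ker.2 (by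
      simp only [map_mul, map_inv, mul_inv_cancel_comm, mul_inv_cancel])⟩ hk
    (-1) (by simp) (by simp [det_neg])
  obtain ⟨⟨b, hb⟩, c, hc⟩ := h.TB1 h1 hn z ⟨-1, by simp [e]⟩
  have b2 : (r2 M z).1.det = 1 := congrArg Units.val z2
  have hz := InM.of z.2.1
  rw [HH_bk, show r0 M z = 1 from z0, e, hb, hc] at hz
  rw [hb, det_smul, det_one, mul_one, Fintype.card_fin, sq_eq_one_iff] at b2
  rcases b2 with rfl | rfl
  · obtain ⟨g, -, g1, g2, g3⟩ := ex_HH (a := -1) (X := !![1, 0; 0, 1]) (Y := !![-1, 0; 0, c])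
      (Z := !![c, 0; 0, 1]) ((h.cτ hz).congr (by m7))
    have := h.TB1 h1 hn g (by rw [g1, d])
    rw [g2, g3, d, d] at this
    exact h2 (by linear_combination -this.1 - this.2)
  · obtain ⟨g, -, g1, g2, g3⟩ := ex_HH (a := -1) (X := !![-1, 0; 0, c]) (Y := !![1, 0; 0, c])
      (Z := !![-1, 0; 0, -1]) ((h.cτ (h.cτ hz)).congr (by m7))
    have := h.TB h1 hn g (by rw [g3, d])
    rw [g1, g2, d, d] at this
    exact h2 (by linear_combination this.2 - this.1)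

omit h1 in
/-- in odd characteristic the stabiliser is monomial -/
theorem mono1 (g : HH M) {a b : F} (hg : (r1 M g).1 = !![a, b; b, a]) : a = 0 ∨ b = 0 := by
  by_contra! e
  exact h.T_odd (h.slin_r1 g (by simp [hg, e.1]) (by simp [hg, e.2])) hn

omit h1 in
theorem mono3 : Mono M := fun hX => by
  obtain ⟨g, -, g1, g2, g3⟩ := ex_HH hX
  obtain ⟨g', -, a1, a2, a3⟩ := h.cyc g
  obtain ⟨g'', -, b1, b2, b3⟩ := h.cyc g'
  exact ⟨h.mono1 hn g g1, h.mono1 hn g'' (by rw [b3, a2, g2]), h.mono1 hn g' (by rw [a3, g3])⟩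

end Hu7

end Cfsg.Agent.H2.S7
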